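import Mathlib
import Cfsg.Prelude.Def_BlockLocal
import Cfsg.Agent.Blocks.Local
import Cfsg.Agent.Characters.Core
import Cfsg.Agent.Characters.Central
import Cfsg.Agent.Characters.GaloisBasic
import Cfsg.Agent.CharactersDeep.CosetAverage
import Cfsg.Agent.OddOrderCharacters.PF9.Reducible
import Cfsg.Agent.Blocks.Deflate
import Cfsg.Agent.S0145

/-!
# Isomorphic character triples and perfect isometries

`A` a finite group with surjections `q : A →* Γ` and `π : A →* X`, `π` with central kernel; `W` an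
irreducible character of `A` restricting irreducibly to the kernel of `q`.
-/

set_option autoImplicit false
set_option linter.unusedSectionVars false

open scoped ComplexConjugate
open Cfsg Cfsg.Agent.Characters.Core

namespace Cfsg.Agent.H637.TripleIso

/-- A central subgroup acts by a linear character. -/
theorem exists_omega {Γ : Type*} [Group Γ] [Finite Γ] {b : Γ → ℂ} (hb : IsIrrCharacter Γ b)
    (K : Subgroup Γ) (hK : K ≤ Subgroup.center Γ) :
    ∃ ω : K →* ℂ, ∀ (z : K) (g : Γ), b ((z : Γ) * g) = ω z * b g := by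
  have hb1 : b 1 ≠ 0 := isIrr_apply_one_ne_zero hb
  have key : ∀ z ∈ K, ∀ g, b (z * g) = b z / b 1 * b g := by
    intro z hz g
    obtain ⟨n, ρ, hρ, rfl⟩ := hb
    obtain ⟨c, hc⟩ := Cfsg.Agent.Characters.Central.exists_smul_of_comm ρ hρ (ρ z) (fun g => by
      rw [← map_mul, ← map_mul, Subgroup.mem_center_iff.1 (hK hz) g])
    have h1 : ∀ g, ρ.character (z * g) = c * ρ.character g := by
      intro g
      change LinearMap.trace ℂ _ (ρ (z * g)) = c * LinearMap.trace ℂ _ (ρ g)
      rw [map_mul, hc, smul_mul_assoc, one_mul, map_smul, smul_eq_mul]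
    have h2 := h1 1
    rw [mul_one] at h2
    rw [h1, h2, mul_div_assoc, div_self hb1, mul_one]
  refine ⟨⟨⟨fun z => b z / b 1, by simp [div_self hb1]⟩, fun z w => ?_⟩, fun z g => key z z.2 g⟩
  change b ((z : Γ) * (w : Γ)) / b 1 = b z / b 1 * (b w / b 1)
  rw [key z z.2, mul_div_assoc]

theorem mul_conj_hom {K : Type*} [Group K] [Finite K] (ω : K →* ℂ) (z : K) :
    ω z * conj (ω z) = 1 := by
  have h1 : ω z ^ orderOf z = 1 := by rw [← map_pow, pow_orderOf_eq_one, map_one]
  have h2 : ‖ω z‖ = 1 := Complex.norm_eq_one_of_pow_eq_one h1 (orderOf_pos z).ne'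
  rw [Complex.mul_conj, Complex.normSq_eq_norm_sq, h2]
  norm_num

theorem isIntegral_hom {K : Type*} [Group K] [Finite K] (ω : K →* ℂ) (z : K) :
    IsIntegral ℤ (ω z) := by
  have h1 : ω z ^ orderOf z = 1 := by rw [← map_pow, pow_orderOf_eq_one, map_one]
  exact IsIntegral.of_pow (orderOf_pos z) (by rw [h1]; exact isIntegral_one)

/-- The common setting. -/
structure Tri {A Γ X : Type*} [Group A] [Group Γ] [Group X] (q : A →* Γ) (π : A →* X)
    (W l : A → ℂ) : Prop where
  hq : Function.Surjective q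
  hπ : Function.Surjective π
  hW : IsIrrCharacter A W
  hWK : IsIrrCharacter q.ker (fun k : q.ker => W k)
  hl : ∀ z ∈ π.ker, ∀ a, W (z * a) = l z * W a
  hZ : π.ker ≤ Subgroup.center A

/-- The characters of `Γ` on which the central kernel acts by the conjugate of `l`. -/
def BB {A Γ X : Type*} [Group A] [Group Γ] [Group X] (q : A →* Γ) (π : A →* X)
    (l : A → ℂ) : Set (IrrCharacter Γ) :=
  {b | ∀ z ∈ π.ker, ∀ g, (b : Γ → ℂ) (q z * g) = conj (l z) * (b : Γ → ℂ) g}

section

variable {A Γ X : Type*} [Group A] [Group Γ] [Group X] {q : A →* Γ} {π : A →* X}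
  {W l : A → ℂ}

theorem Tri.exists_hom [Finite A] (h : Tri q π W l) :
    ∃ lam : π.ker →* ℂ, ∀ z : π.ker, lam z = l z := by
  obtain ⟨ω, hω⟩ := exists_omega h.hW π.ker h.hZ
  refine ⟨ω, fun z => ?_⟩
  have h1 := hω z 1
  have h2 := h.hl z z.2 1
  rw [h1] at h2
  exact mul_right_cancel₀ (isIrr_apply_one_ne_zero h.hW) h2

theorem Tri.l_mul_conj [Finite A] (h : Tri q π W l) {z : A} (hz : z ∈ π.ker) :
    l z * conj (l z) = 1 := by
  obtain ⟨lam, hlam⟩ := h.exists_hom
  rw [← hlam ⟨z, hz⟩]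
  exact mul_conj_hom lam _

theorem Tri.classInner_mul [Fintype A] (h : Tri q π W l) (b c : Γ → ℂ) :
    classInner (W * fun a => b (q a)) (W * fun a => c (q a)) =
      classInner (fun a => b (q a)) (fun a => c (q a)) := by
  have := Fintype.ofFinite q.ker
  rw [classInner_def, classInner_def]
  congr 1
  have h1 := Cfsg.Agent.CharactersDeep.CosetAverage.sum_mul_invariant q.ker
    (fun a => W a * conj (W a)) (fun a => b (q a) * conj (c (q a))) (fun n g => by
      simp only [map_mul, MonoidHom.mem_ker.1 n.2, one_mul])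
  have h2 : ∀ g : A, (W * fun a => b (q a)) g * conj ((W * fun a => c (q a)) g) =
      W g * conj (W g) * (b (q g) * conj (c (q g))) := by
    intro g
    simp only [Pi.mul_apply, map_mul]
    ring
  simp_rw [h2]
  rw [h1]
  refine Finset.sum_congr rfl fun g _ => ?_
  rw [Cfsg.Agent.CharactersDeep.CosetAverage.cosetAverage_self q.ker W h.hW h.hWK g, one_mul]

theorem Tri.irr_mul [Finite A] (h : Tri q π W l) {b : Γ → ℂ} (hb : IsIrrCharacter Γ b) :
    IsIrrCharacter A (W * fun a => b (q a)) := by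
  have := Fintype.ofFinite A
  have h1 : IsIrrCharacter A (fun a => b (q a)) := isIrr_comp q h.hq hb
  refine isIrr_of_classInner_self (isCharacter_mul (isIrr_isCharacter h.hW)
    (isIrr_isCharacter h1)) ?_
  rw [h.classInner_mul]
  exact classInner_irr_self h1

/-- The correspondence of characters. -/
theorem Tri.exists_bij [Fintype A] [Fintype q.ker] (h : Tri q π W l) :
    ∃ F : IrrCharacter Γ → IrrCharacter X,
      Set.BijOn F (BB q π l) {χ : IrrCharacter X |
        classInner (fun k : q.ker => (χ : X → ℂ) (π k)) (fun k : q.ker => W k) ≠ 0} ∧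
      ∀ b ∈ BB q π l, ∀ a : A, (F b : X → ℂ) (π a) = (b : Γ → ℂ) (q a) * W a := by
  classical
  have hW1 := isIrr_apply_one_ne_zero h.hW
  have hex : ∀ b : IrrCharacter Γ, b ∈ BB q π l → ∃ χ : IrrCharacter X, ∀ a : A,
      (χ : X → ℂ) (π a) = (b : Γ → ℂ) (q a) * W a := by
    intro b hb
    obtain ⟨χ', hχ', hχ⟩ := Cfsg.Agent.OddOrderCharacters.PF9.Reducible.exists_of_surjective π h.hπ
      (h.irr_mul b.2) (fun a ha => by
        have h1 := h.hl a (MonoidHom.mem_ker.2 ha) 1
        have h2 := hb a (MonoidHom.mem_ker.2 ha) 1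
        rw [mul_one] at h1 h2
        simp only [Pi.mul_apply, map_one]
        rw [h1, h2]
        have h3 := h.l_mul_conj (MonoidHom.mem_ker.2 ha)
        linear_combination W 1 * (b : Γ → ℂ) 1 * h3)
    exact ⟨⟨χ', hχ'⟩, fun a => (hχ a).trans (mul_comm _ _)⟩
  have hne : Nonempty (IrrCharacter X) := ⟨⟨1, isIrr_one⟩⟩
  choose! F hF using hex
  refine ⟨F, ⟨?_, ?_, ?_⟩, hF⟩
  · intro b hb
    have hq1 : ∀ k : q.ker, q (k : A) = 1 := fun k => MonoidHom.mem_ker.1 k.2
    change classInner _ _ ≠ 0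
    have h1 : (fun k : q.ker => (F b : X → ℂ) (π k)) =
        (b : Γ → ℂ) 1 • (fun k : q.ker => W k) := by
      funext k
      rw [hF b hb, hq1 k]
      rfl
    rw [h1, classInner_smul_left, classInner_irr_self h.hWK, mul_one]
    exact isIrr_apply_one_ne_zero b.2
  · intro b hb c hc hbc
    by_contra hne
    have h1 : (W * fun a => (b : Γ → ℂ) (q a)) = (W * fun a => (c : Γ → ℂ) (q a)) := by
      funext a
      have h2 := hF b hb a
      have h3 := hF c hc a
      rw [hbc] at h2
      simp only [Pi.mul_apply]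
      rw [mul_comm, ← h2, h3, mul_comm]
    have h2 : IsIrrCharacter A (fun a => (b : Γ → ℂ) (q a)) := isIrr_comp q h.hq b.2
    have h3 : IsIrrCharacter A (fun a => (c : Γ → ℂ) (q a)) := isIrr_comp q h.hq c.2
    have h4 := h.classInner_mul (b : Γ → ℂ) (c : Γ → ℂ)
    rw [← h1, classInner_irr_self (h.irr_mul b.2), classInner_irr_ne h2 h3] at h4
    · exact one_ne_zero h4
    · intro h5
      apply hne
      apply Subtype.ext
      funext g
      obtain ⟨a, rfl⟩ := h.hq g
      exact congrFun h5 a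
  · intro χ hχ
    have hχ' : IsIrrCharacter A (fun a => (χ : X → ℂ) (π a)) := isIrr_comp π h.hπ χ.2
    obtain ⟨η, hη, hηK, hηe⟩ := Cfsg.Agent.CharactersDeep.CosetAverage.exists_irr_mul q.ker W h.hW
      h.hWK _ hχ' hχ
    obtain ⟨b, hb, hbη⟩ := Cfsg.Agent.OddOrderCharacters.PF9.Reducible.exists_of_surjective q h.hq
      hη (fun a ha => by
        have := hηK ⟨a, MonoidHom.mem_ker.2 ha⟩ 1
        rwa [mul_one] at this)
    have hη1 := isIrr_apply_one_ne_zero hη
    obtain ⟨ω, hω⟩ := exists_omega hη π.ker h.hZ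
    have hbB : (⟨b, hb⟩ : IrrCharacter Γ) ∈ BB q π l := by
      intro z hz g
      obtain ⟨a, rfl⟩ := h.hq g
      change b (q z * q a) = _ * b (q a)
      rw [← map_mul, hbη, hbη]
      have h1 := hω ⟨z, hz⟩ a
      change η (z * a) = _ at h1
      rw [h1]
      congr 1
      have h2 := congrFun hηe z
      have h3 := congrFun hηe 1
      simp only [Pi.mul_apply, map_one, MonoidHom.mem_ker.1 hz] at h2 h3
      have h4 := h.hl z hz 1
      have h5 := hω ⟨z, hz⟩ 1
      change η (z * 1) = _ at h5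
      rw [mul_one] at h4 h5
      rw [h3, h4, h5] at h2
      have h6 : l z * ω ⟨z, hz⟩ = 1 := by
        have h7 : W 1 * η 1 ≠ 0 := mul_ne_zero hW1 hη1
        apply mul_right_cancel₀ h7
        linear_combination -h2
      have h8 := h.l_mul_conj hz
      have h9 : l z ≠ 0 := fun h0 => by rw [h0, zero_mul] at h6; exact zero_ne_one h6
      apply mul_left_cancel₀ h9
      rw [h6, h8]
    refine ⟨⟨b, hb⟩, hbB, ?_⟩
    apply Subtype.ext
    funext x
    obtain ⟨a, rfl⟩ := h.hπ x
    rw [hF _ hbB a]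
    change b (q a) * W a = _
    rw [hbη, mul_comm]
    exact (congrFun hηe a).symm

end

/-! ### The sum over `BB` -/

open scoped Classical in
/-- The order of the centralizer of `v` if `u` and `v` are conjugate, zero otherwise. -/
noncomputable def cc {Γ : Type*} [Group Γ] (u v : Γ) : ℂ :=
  if IsConj u v then (Nat.card (Subgroup.centralizer ({v} : Set Γ)) : ℂ) else 0

theorem cc_of {Γ : Type*} [Group Γ] {u v : Γ} (h : IsConj u v) :
    cc u v = (Nat.card (Subgroup.centralizer ({v} : Set Γ)) : ℂ) := if_pos h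

theorem cc_of_not {Γ : Type*} [Group Γ] {u v : Γ} (h : ¬ IsConj u v) : cc u v = 0 := if_neg h

section sum

variable {A Γ X : Type*} [Group A] [Group Γ] [Group X] {q : A →* Γ} {π : A →* X}
  {W l : A → ℂ}

theorem Tri.sum_BB [Finite A] [Fintype (IrrCharacter Γ)] [Fintype π.ker] [Finite Γ]
    (h : Tri q π W l) (u v : Γ) :
    (Nat.card π.ker : ℂ) * ∑ᶠ b ∈ BB q π l, (b : Γ → ℂ) u * (b : Γ → ℂ) v =
      ∑ z : π.ker, l z * cc u (q z * v)⁻¹ := by
  classical
  have := Fintype.ofFinite Γ
  obtain ⟨lam, hlam⟩ := h.exists_hom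
  have hcol : ∀ w : Γ, ∑ b : IrrCharacter Γ, (b : Γ → ℂ) u * (b : Γ → ℂ) w = cc u w⁻¹ := by
    intro w
    have h1 : cc u w⁻¹ = ∑ χ : IrrCharacter Γ, (χ : Γ → ℂ) u * conj ((χ : Γ → ℂ) w⁻¹) := by
      rw [Cfsg.Agent.S0145.sum_irr_mul_conj u w⁻¹, cc]
      congr
    rw [h1]
    refine Finset.sum_congr rfl fun b _ => ?_
    rw [isCharacter_apply_inv (isIrr_isCharacter b.2), Complex.conj_conj]
  have hcol' : ∀ z : π.ker, l z * cc u (q z * v)⁻¹ =
      ∑ b : IrrCharacter Γ, l z * ((b : Γ → ℂ) u * (b : Γ → ℂ) (q z * v)) := by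
    intro z
    rw [← Finset.mul_sum, hcol]
  rw [Finset.sum_congr rfl fun z _ => hcol' z]
  rw [Finset.sum_comm, finsum_mem_eq_finite_toFinset_sum _ (Set.toFinite _), Finset.mul_sum]
  have hle : π.ker.map q ≤ Subgroup.center Γ := by
    rintro _ ⟨z, hz, rfl⟩
    rw [Subgroup.mem_center_iff]
    intro g
    obtain ⟨a, rfl⟩ := h.hq g
    rw [← map_mul, ← map_mul, Subgroup.mem_center_iff.1 (h.hZ hz) a]
  have hsub : (Set.toFinite (BB q π l)).toFinset ⊆ Finset.univ := Finset.subset_univ _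
  rw [← Finset.sum_subset hsub]
  · refine Finset.sum_congr rfl fun b hb => ?_
    rw [Set.Finite.mem_toFinset] at hb
    have h1 : ∀ z : π.ker, l z * ((b : Γ → ℂ) u * (b : Γ → ℂ) (q z * v)) =
        (b : Γ → ℂ) u * (b : Γ → ℂ) v := by
      intro z
      rw [hb z z.2 v]
      have h2 := h.l_mul_conj z.2
      linear_combination (b : Γ → ℂ) u * (b : Γ → ℂ) v * h2
    rw [Finset.sum_congr rfl fun z _ => h1 z, Finset.sum_const, Finset.card_univ, nsmul_eq_mul,
      Nat.card_eq_fintype_card]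
  · intro b _ hb
    rw [Set.Finite.mem_toFinset] at hb
    obtain ⟨ω, hω⟩ := exists_omega b.2 (π.ker.map q) hle
    let mu : π.ker →* ℂ := lam * ω.comp ((q.comp π.ker.subtype).codRestrict (π.ker.map q)
      (fun z => ⟨z, z.2, rfl⟩))
    have hmu : ∀ z : π.ker, ∀ g, l z * (b : Γ → ℂ) (q z * g) = mu z * (b : Γ → ℂ) g := by
      intro z g
      have h1 := hω ⟨q z, ⟨z, z.2, rfl⟩⟩ g
      change (b : Γ → ℂ) (q z * g) = _ at h1
      rw [h1, ← hlam, ← mul_assoc]
      rfl
    have h0 : ∑ z : π.ker, mu z = 0 := by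
      refine sum_hom_units_eq_zero mu ?_
      intro h1
      apply hb
      intro z hz g
      have h2 := hmu ⟨z, hz⟩ g
      rw [h1, MonoidHom.one_apply, one_mul] at h2
      have h3 := h.l_mul_conj hz
      change l z * (b : Γ → ℂ) (q z * g) = _ at h2
      rw [← h2]
      linear_combination -(b : Γ → ℂ) (q z * g) * h3
    have h1 : ∀ z : π.ker, l z * ((b : Γ → ℂ) u * (b : Γ → ℂ) (q z * v)) =
        mu z * ((b : Γ → ℂ) u * (b : Γ → ℂ) v) := by
      intro z
      have := hmu z v
      linear_combination (b : Γ → ℂ) u * this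
    rw [Finset.sum_congr rfl fun z _ => h1 z, ← Finset.sum_mul, h0, zero_mul]

end sum

end Cfsg.Agent.H637.TripleIso
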