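import Mathlib
import Cfsg.Prelude.Def_BlockLocal
import Cfsg.Agent.Blocks.Local
import Cfsg.Agent.Blocks.SylowIn
import Cfsg.Agent.CharDeep.LinearChar
import Cfsg.Agent.H637.TripleIso

/-!
# The perfect isometry of isomorphic character triples (part A of S4643)
-/

set_option autoImplicit false
set_option linter.unusedSectionVars false

open scoped ComplexConjugate
open Cfsg Cfsg.Agent.Characters.Core Cfsg.Agent.H637.TripleIso

namespace Cfsg.Agent.H637.TaskA

/-- centralizers along a central extension -/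
theorem card_centralizer_dvd_of_central {A X : Type*} [Group A] [Group X] [Finite A]
    (π : A →* X) (hπ : Function.Surjective π) (hZ : π.ker ≤ Subgroup.center A) (a : A) :
    Nat.card (Subgroup.centralizer ({π a} : Set X)) ∣
      Nat.card (Subgroup.centralizer ({a} : Set A)) := by
  set P : Subgroup A := (Subgroup.centralizer ({π a} : Set X)).comap π with hP
  have hmem : ∀ x : P, (x : A) * a * (x : A)⁻¹ * a⁻¹ ∈ π.ker := by
    intro x
    have h1 : π x ∈ Subgroup.centralizer ({π a} : Set X) := x.2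
    rw [Subgroup.mem_centralizer_singleton_iff] at h1
    rw [MonoidHom.mem_ker, map_mul, map_mul, map_mul, map_inv, map_inv, h1]
    group
  let f : P →* π.ker :=
    { toFun := fun x => ⟨(x : A) * a * (x : A)⁻¹ * a⁻¹, hmem x⟩
      map_one' := by
        apply Subtype.ext
        simp
      map_mul' := by
        intro x y
        apply Subtype.ext
        change (x : A) * y * a * ((x : A) * y)⁻¹ * a⁻¹ =
          (x : A) * a * (x : A)⁻¹ * a⁻¹ * ((y : A) * a * (y : A)⁻¹ * a⁻¹)
        have h1 := Subgroup.mem_center_iff.1 (hZ (hmem y))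
        have h2 := h1 (x : A)
        have h3 := h1 ((x : A) * a * (x : A)⁻¹ * a⁻¹)
        calc (x : A) * y * a * ((x : A) * y)⁻¹ * a⁻¹
            = (x : A) * ((y : A) * a * (y : A)⁻¹ * a⁻¹) * (a * (x : A)⁻¹ * a⁻¹) := by group
          _ = ((y : A) * a * (y : A)⁻¹ * a⁻¹) * ((x : A) * a * (x : A)⁻¹ * a⁻¹) := by
              rw [h2]; group
          _ = _ := h3.symm }
  have hker : Nat.card f.ker = Nat.card (Subgroup.centralizer ({a} : Set A)) := by
    refine Nat.card_congr ⟨fun x => ⟨(x : P), ?_⟩, fun x => ⟨⟨x, ?_⟩, ?_⟩, ?_, ?_⟩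
    · have h1 := congrArg Subtype.val (MonoidHom.mem_ker.1 x.2)
      change ((x : P) : A) * a * ((x : P) : A)⁻¹ * a⁻¹ = 1 at h1
      rw [Subgroup.mem_centralizer_singleton_iff]
      rw [mul_inv_eq_one, mul_inv_eq_iff_eq_mul] at h1
      exact h1
    · rw [hP, Subgroup.mem_comap, Subgroup.mem_centralizer_singleton_iff, ← map_mul, ← map_mul,
        Subgroup.mem_centralizer_singleton_iff.1 x.2]
    · rw [MonoidHom.mem_ker]
      apply Subtype.ext
      change (x : A) * a * (x : A)⁻¹ * a⁻¹ = 1
      rw [Subgroup.mem_centralizer_singleton_iff.1 x.2]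
      group
    · intro x
      rfl
    · intro x
      rfl
  have hcP : Nat.card P = Nat.card π.ker * Nat.card (Subgroup.centralizer ({π a} : Set X)) := by
    have h1 := (π.comp P.subtype).ker.card_mul_index
    rw [Subgroup.index_ker] at h1
    rw [← h1]
    congr 1
    · refine Nat.card_congr ⟨fun x => ⟨(x : P), ?_⟩, fun x => ⟨⟨x, ?_⟩, ?_⟩, ?_, ?_⟩
      · exact MonoidHom.mem_ker.1 x.2
      · rw [hP, Subgroup.mem_comap, MonoidHom.mem_ker.1 x.2]
        exact one_mem _
      · exact MonoidHom.mem_ker.1 x.2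
      · intro x; rfl
      · intro x; rfl
    · have h2 : (π.comp P.subtype).range = Subgroup.centralizer ({π a} : Set X) := by
        rw [MonoidHom.range_comp, Subgroup.range_subtype, hP,
          Subgroup.map_comap_eq_self_of_surjective hπ]
      rw [h2]
  have h1 := f.ker.card_mul_index
  rw [Subgroup.index_ker, hker, hcP] at h1
  obtain ⟨t, ht⟩ := Subgroup.card_subgroup_dvd_card f.range
  have hpos : 0 < Nat.card f.range := Nat.card_pos
  refine ⟨t, ?_⟩
  rw [ht] at h1
  apply Nat.eq_of_mul_eq_mul_right hpos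
  rw [h1]
  ring

/-- centralizers along an arbitrary homomorphism -/
theorem card_centralizer_dvd_mul {A Γ : Type*} [Group A] [Group Γ] [Finite A] [Finite Γ]
    (q : A →* Γ) (a : A) :
    Nat.card (Subgroup.centralizer ({a} : Set A)) ∣
      Nat.card q.ker * Nat.card (Subgroup.centralizer ({q a} : Set Γ)) := by
  set C := Subgroup.centralizer ({a} : Set A) with hC
  have h1 := (q.comp C.subtype).ker.card_mul_index
  rw [Subgroup.index_ker] at h1
  rw [← h1]
  apply mul_dvd_mul
  · have hinj : Function.Injective (fun x : (q.comp C.subtype).ker =>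
        (⟨(x : C), MonoidHom.mem_ker.1 x.2⟩ : q.ker)) := by
      intro x y hxy
      have := congrArg Subtype.val hxy
      exact Subtype.ext (Subtype.ext this)
    let g : (q.comp C.subtype).ker →* q.ker :=
      { toFun := fun x => ⟨(x : C), MonoidHom.mem_ker.1 x.2⟩
        map_one' := rfl
        map_mul' := fun x y => rfl }
    exact Subgroup.card_dvd_of_injective g hinj
  · apply Subgroup.card_dvd_of_le
    rintro _ ⟨x, rfl⟩
    rw [Subgroup.mem_centralizer_singleton_iff]
    change q x * q a = q a * q x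
    rw [← map_mul, ← map_mul, Subgroup.mem_centralizer_singleton_iff.1 x.2]

theorem isPRegular_map_iff {A B : Type*} [Group A] [Group B] [Finite A] {p : ℕ} [Fact p.Prime]
    (f : A →* B) (hf : ¬ p ∣ Nat.card f.ker) (a : A) : IsPRegular p (f a) ↔ IsPRegular p a := by
  unfold IsPRegular
  rw [not_iff_not]
  constructor
  · intro h
    exact h.trans (orderOf_map_dvd f a)
  · intro h
    have h1 : orderOf a ∣ orderOf (f a) * Nat.card f.ker := by
      apply orderOf_dvd_of_pow_eq_one
      rw [pow_mul]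
      have h2 : a ^ orderOf (f a) ∈ f.ker := by
        rw [MonoidHom.mem_ker, map_pow, pow_orderOf_eq_one]
      have h3 := pow_card_eq_one' (x := (⟨_, h2⟩ : f.ker))
      exact congrArg Subtype.val h3
    rcases (Nat.Prime.dvd_mul (Fact.out : p.Prime)).1 (h.trans h1) with h2 | h2
    · exact h2
    · exact absurd h2 hf

theorem isPRegular_coe_iff {G : Type*} [Group G] {p : ℕ} (H : Subgroup G) (h : H) :
    IsPRegular p (h : G) ↔ IsPRegular p h := by
  unfold IsPRegular
  rw [Subgroup.orderOf_coe]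

theorem isPRegular_inv_iff {G : Type*} [Group G] {p : ℕ} (g : G) :
    IsPRegular p g⁻¹ ↔ IsPRegular p g := by
  unfold IsPRegular
  rw [orderOf_inv]

theorem isPRegular_of_isConj {G : Type*} [Group G] {p : ℕ} {g h : G} (hc : IsConj g h) :
    IsPRegular p g ↔ IsPRegular p h := by
  obtain ⟨c, rfl⟩ := isConj_iff.1 hc
  unfold IsPRegular
  have h1 : orderOf (c * g * c⁻¹) = orderOf g := by
    have := orderOf_injective (MulAut.conj c).toMonoidHom (MulAut.conj c).injective g
    exact this
  rw [h1]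

/-- multiplying by a commuting `p'`-element -/
theorem isPRegular_mul_iff {G : Type*} [Group G] [Finite G] {p : ℕ} [Fact p.Prime] {z g : G}
    (hc : Commute z g) (hz : ¬ p ∣ orderOf z) : IsPRegular p (z * g) ↔ IsPRegular p g := by
  have key : ∀ {z g : G}, Commute z g → ¬ p ∣ orderOf z → p ∣ orderOf (z * g) →
      p ∣ orderOf g := by
    intro z g hc hz h
    have h1 : orderOf (z * g) ∣ orderOf z * orderOf g := by
      apply orderOf_dvd_of_pow_eq_one
      rw [hc.mul_pow, pow_mul, pow_orderOf_eq_one, one_pow, one_mul, mul_comm, pow_mul,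
        pow_orderOf_eq_one, one_pow]
    rcases (Nat.Prime.dvd_mul (Fact.out : p.Prime)).1 (h.trans h1) with h2 | h2
    · exact absurd h2 hz
    · exact h2
  unfold IsPRegular
  rw [not_iff_not]
  refine ⟨key hc hz, fun h => ?_⟩
  have h1 : z⁻¹ * (z * g) = g := inv_mul_cancel_left z g
  have h2 := key (z := z⁻¹) (g := z * g) ((Commute.refl z).mul_right hc).inv_left
    (by rwa [orderOf_inv]) (by rwa [h1])
  exact h2

theorem centralizer_central_mul_inv {Γ : Type*} [Group Γ] {c : Γ} (hc : c ∈ Subgroup.center Γ)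
    (v : Γ) : Subgroup.centralizer ({(c * v)⁻¹} : Set Γ) = Subgroup.centralizer ({v} : Set Γ) := by
  ext x
  rw [Subgroup.mem_centralizer_singleton_iff, Subgroup.mem_centralizer_singleton_iff]
  have hcx := Subgroup.mem_center_iff.1 hc x
  constructor
  · intro h
    have h0 : Commute x (c * v)⁻¹ := h
    have h1 : x * (c * v) = c * v * x := Commute.inv_right_iff.1 h0
    rw [← mul_assoc, hcx, mul_assoc, mul_assoc] at h1
    exact mul_left_cancel h1
  · intro h
    have h1 : x * (c * v) = c * v * x := by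
      rw [← mul_assoc, hcx, mul_assoc, h, mul_assoc]
    have h2 : Commute x (c * v) := h1
    exact h2.inv_right


/-- The local integrality of the kernel: `C_X(x)` divides `#N * C_Γ(...)`. -/
theorem memLocalRing_div_card {p : ℕ} [Fact p.Prime] {M : Ideal AlgInt} (hM : IsPModular p M)
    {a b c : ℕ} (ha : ¬ p ∣ a) (hb : 0 < b) (h : b ∣ a * c) : MemLocalRing M ((c : ℂ) / b) := by
  have := Cfsg.Agent.Blocks.Local.isPrime_of_isPModular hM
  obtain ⟨t, ht⟩ := h
  have ha0 : (a : ℂ) ≠ 0 := by
    rintro h0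
    apply ha
    have : a = 0 := by exact_mod_cast h0
    rw [this]
    exact dvd_zero p
  have hb0 : (b : ℂ) ≠ 0 := by exact_mod_cast hb.ne'
  have h1 : (c : ℂ) / b = (a : ℂ)⁻¹ * t := by
    rw [div_eq_iff hb0]
    have h2 : (a : ℂ) * c = b * t := by exact_mod_cast ht
    field_simp
    linear_combination h2
  rw [h1]
  exact Cfsg.Agent.Blocks.Local.memLocalRing_mul
    (Cfsg.Agent.Blocks.Local.memLocalRing_inv_natCast hM ha)
    (Cfsg.Agent.Blocks.Local.memLocalRing_natCast t)

/-- Inner products along a bijective homomorphism. -/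
theorem classInner_comp_bij {M N : Type*} [Group M] [Fintype M] [Group N] [Fintype N]
    (e : M ≃ N) (f g : N → ℂ) :
    classInner (fun x => f (e x)) (fun x => g (e x)) = classInner f g := by
  rw [classInner_def, classInner_def, Nat.card_congr e]
  congr 1
  exact Fintype.sum_equiv e _ _ fun x => rfl

theorem isIrr_of_restrict {A : Type*} [Group A] [Finite A] {n : ℕ}
    (V : A →* Matrix (Fin n) (Fin n) ℂ) (K : Subgroup A)
    (h : IsIrrCharacter K (fun k : K => (V k).trace)) :
    IsIrrCharacter A (fun a => (V a).trace) := by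
  let ρ : Representation ℂ A (Fin n → ℂ) :=
    (Matrix.toLinAlgEquiv' (R := ℂ) (n := Fin n)).toAlgHom.toRingHom.toMonoidHom.comp V
  have hρ : ∀ a, ρ.character a = (V a).trace := by
    intro a
    change LinearMap.trace ℂ _ (Matrix.toLin' (V a)) = _
    rw [Matrix.trace_toLin'_eq]
  have h1 : Representation.IsIrreducible (ρ.comp K.subtype) := by
    rw [isIrreducible_iff_isIrrCharacter]
    have h2 : (Representation.character (ρ.comp K.subtype : Representation ℂ K (Fin n → ℂ))) =
        fun k : K => (V k).trace := funext fun k => hρ k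
    rw [h2]
    exact h
  have h3 := Cfsg.Agent.CharDeep.LinearChar.isIrreducible_of_comp K.subtype ρ h1
  have h4 := isIrrCharacter_of_rep ρ h3
  have h5 : ρ.character = fun a => (V a).trace := funext hρ
  rwa [h5] at h4


section tri

variable {A Γ X : Type*} [Group A] [Group Γ] [Group X] {q : A →* Γ} {π : A →* X}
  {W l : A → ℂ}

theorem memLocalRing_cc [Finite A] [Finite Γ] (h : Tri q π W l) {p : ℕ} [Fact p.Prime]
    {M : Ideal AlgInt} (hM : IsPModular p M) (hq : ¬ p ∣ Nat.card q.ker) (a : A) (u v : Γ)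
    (huv : IsConj u v → Nat.card (Subgroup.centralizer ({v} : Set Γ)) =
      Nat.card (Subgroup.centralizer ({q a} : Set Γ))) :
    MemLocalRing M (cc u v / (Nat.card (Subgroup.centralizer ({π a} : Set X)) : ℂ)) := by
  have hp := Cfsg.Agent.Blocks.Local.isPrime_of_isPModular hM
  have hX : Finite X := Finite.of_surjective π h.hπ
  by_cases hc : IsConj u v
  · rw [cc_of hc, huv hc]
    exact memLocalRing_div_card hM hq Nat.card_pos
      ((card_centralizer_dvd_of_central π h.hπ h.hZ a).trans (card_centralizer_dvd_mul q a))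
  · rw [cc_of_not hc, zero_div]
    exact Cfsg.Agent.Blocks.Local.memLocalRing_zero

end tri

set_option maxHeartbeats 1000000 in
theorem taskA {G : Type*} [Group G] [Fintype G] (p : ℕ) [Fact p.Prime] (M : Ideal AlgInt)
    (hM : IsPModular p M) (N : Subgroup G) [hN : N.Normal] [Fintype N] (hpN : ¬ p ∣ Nat.card N)
    (H : Subgroup G) [Fintype H] [Fintype (N.subgroupOf H)] (hNH : N ⊔ H = ⊤)
    (θ : IrrCharacter N) (φ : IrrCharacter (N.subgroupOf H))
    {Δ : Type*} [Group Δ] [Finite Δ] (π : Δ →* G) (hπ : Function.Surjective π)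
    (hZp : ¬ p ∣ Nat.card π.ker) (hZ : π.ker ≤ Subgroup.center Δ)
    (ν : N →* Δ) (hν : ∀ x, π (ν x) = x) (hνn : ν.range.Normal)
    {n m : ℕ} (V : Δ →* Matrix (Fin n) (Fin n) ℂ) (Q : (H.comap π) →* Matrix (Fin m) (Fin m) ℂ)
    (hV : ∀ x : N, (V (ν x)).trace = (θ : N → ℂ) x)
    (hQ : ∀ (x : N) (hx : (x : G) ∈ H),
      (Q ⟨ν x, by rw [Subgroup.mem_comap, hν]; exact hx⟩).trace =
        (φ : N.subgroupOf H → ℂ) ⟨⟨(x : G), hx⟩, x.2⟩)
    (l : Δ → ℂ) (hVZ : ∀ z ∈ π.ker, V z = l z • (1 : Matrix (Fin n) (Fin n) ℂ))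
    (hQZ : ∀ z (hz : z ∈ π.ker), Q ⟨z, by
      rw [Subgroup.mem_comap, MonoidHom.mem_ker.1 hz]; exact one_mem _⟩ =
        l z • (1 : Matrix (Fin m) (Fin m) ℂ)) :
    ∃ (I : IrrCharacter H → IrrCharacter G) (ε : IrrCharacter H → ℤ), IsPerfectIsometry p M
      {ψ : IrrCharacter H | classInner (fun x : N.subgroupOf H => (ψ : H → ℂ) x)
        (φ : N.subgroupOf H → ℂ) ≠ 0}
      {χ : IrrCharacter G | classInner (fun x : N => (χ : G → ℂ) x) (θ : N → ℂ) ≠ 0} I ε := by
  classical
  have hprime := Cfsg.Agent.Blocks.Local.isPrime_of_isPModular hM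
  have := Fintype.ofFinite Δ
  let A' : Subgroup Δ := H.comap π
  have hA' : A' = H.comap π := rfl
  let q : Δ →* Δ ⧸ ν.range := QuotientGroup.mk' ν.range
  let q' : A' →* Δ ⧸ ν.range := q.comp A'.subtype
  let π' : A' →* H := (π.comp A'.subtype).codRestrict H (fun a => a.2)
  have hπ'c : ∀ a : A', ((π' a : H) : G) = π a := fun a => rfl
  have hqk : q.ker = ν.range := QuotientGroup.ker_mk' ν.range
  have hνinj : Function.Injective ν := by
    intro x y hxy
    have h1 := congrArg π hxy
    rw [hν, hν] at h1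
    exact Subtype.ext h1
  -- the isomorphism `N ≃* ker q`
  let e : N ≃* q.ker := MulEquiv.ofBijective (ν.codRestrict q.ker (fun x => by
      rw [hqk]; exact ⟨x, rfl⟩)) ⟨fun x y hxy => hνinj (congrArg Subtype.val hxy), by
        rintro ⟨k, hk⟩
        rw [hqk] at hk
        obtain ⟨x, rfl⟩ := hk
        exact ⟨x, rfl⟩⟩
  have he : ∀ x : N, ((e x : q.ker) : Δ) = ν x := fun x => rfl
  let e' : N.subgroupOf H ≃* q'.ker := MulEquiv.ofBijective
    (MonoidHom.mk' (fun x : N.subgroupOf H => (⟨⟨ν ⟨((x : H) : G), x.2⟩, by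
      change π (ν ⟨((x : H) : G), x.2⟩) ∈ H
      rw [hν]; exact (x : H).2⟩, by
        change q (ν ⟨((x : H) : G), x.2⟩) = 1
        rw [← MonoidHom.mem_ker, hqk]
        exact ⟨_, rfl⟩⟩ : q'.ker)) (by
          intro x y
          apply Subtype.ext
          apply Subtype.ext
          change ν ⟨((x : H) : G) * ((y : H) : G), _⟩ = ν _ * ν _
          rw [← map_mul]
          rfl)) ⟨by
      intro x y hxy
      have h1 : ν ⟨((x : H) : G), x.2⟩ = ν ⟨((y : H) : G), y.2⟩ :=
        congrArg (fun k : q'.ker => ((k : A') : Δ)) hxy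
      have h2 := congrArg Subtype.val (hνinj h1)
      exact Subtype.ext (Subtype.ext h2), by
      rintro ⟨⟨k, hkH⟩, hk⟩
      have hk2 : k ∈ q.ker := hk
      rw [hqk] at hk2
      obtain ⟨x, rfl⟩ := hk2
      have hxH : (x : G) ∈ H := by
        have : π (ν x) ∈ H := hkH
        rwa [hν] at this
      exact ⟨⟨⟨x, hxH⟩, x.2⟩, rfl⟩⟩
  have he' : ∀ x : N.subgroupOf H, (((e' x : q'.ker) : A') : Δ) = ν ⟨((x : H) : G), x.2⟩ :=
    fun x => rfl
  let W : Δ → ℂ := fun d => (V d).trace
  let W' : A' → ℂ := fun a => (Q a).trace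
  let l' : A' → ℂ := fun a => l a
  have := Fintype.ofFinite q.ker
  have := Fintype.ofFinite q'.ker
  have := Fintype.ofFinite A'
  -- the first triple
  have hWe : ∀ x : N, W (e x) = (θ : N → ℂ) x := fun x => hV x
  have hWK : IsIrrCharacter q.ker (fun k : q.ker => W k) := by
    have h1 := isIrr_comp e.symm.toMonoidHom e.symm.surjective θ.2
    have h2 : ((θ : N → ℂ) ∘ e.symm.toMonoidHom) = fun k : q.ker => W k := by
      funext k
      obtain ⟨x, rfl⟩ := e.surjective k
      rw [hWe]
      change (θ : N → ℂ) (e.symm (e x)) = _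
      rw [e.symm_apply_apply]
    rwa [h2] at h1
  have T : Tri q π W l :=
    { hq := QuotientGroup.mk'_surjective _
      hπ := hπ
      hW := isIrr_of_restrict V q.ker hWK
      hWK := hWK
      hl := by
        intro z hz a
        change (V (z * a)).trace = l z * (V a).trace
        rw [map_mul, hVZ z hz, smul_mul_assoc, one_mul, Matrix.trace_smul, smul_eq_mul]
      hZ := hZ }
  -- the second triple
  have hWe' : ∀ x : N.subgroupOf H, W' (e' x) = (φ : N.subgroupOf H → ℂ) x := by
    intro x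
    exact hQ ⟨((x : H) : G), x.2⟩ (x : H).2
  have hWK' : IsIrrCharacter q'.ker (fun k : q'.ker => W' k) := by
    have h1 := isIrr_comp e'.symm.toMonoidHom e'.symm.surjective φ.2
    have h2 : ((φ : N.subgroupOf H → ℂ) ∘ e'.symm.toMonoidHom) = fun k : q'.ker => W' k := by
      funext k
      obtain ⟨x, rfl⟩ := e'.surjective k
      rw [hWe']
      change (φ : N.subgroupOf H → ℂ) (e'.symm (e' x)) = _
      rw [e'.symm_apply_apply]
    rwa [h2] at h1
  have hkk : ∀ z : A', z ∈ π'.ker ↔ (z : Δ) ∈ π.ker := by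
    intro z
    rw [MonoidHom.mem_ker, MonoidHom.mem_ker, ← hπ'c]
    exact ⟨fun h1 => by rw [h1]; rfl, fun h1 => Subtype.ext h1⟩
  have hq's : Function.Surjective q' := by
    intro g
    obtain ⟨d, rfl⟩ := T.hq g
    have h1 : π d ∈ N ⊔ H := by rw [hNH]; trivial
    rw [Subgroup.mem_sup_of_normal_left] at h1
    obtain ⟨x, hx, y, hy, hxy⟩ := h1
    refine ⟨⟨(ν ⟨x, hx⟩)⁻¹ * d, ?_⟩, ?_⟩
    · rw [hA', Subgroup.mem_comap, map_mul, map_inv, hν, ← hxy]
      simpa using hy
    · change q ((ν ⟨x, hx⟩)⁻¹ * d) = q d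
      have h2 : q (ν ⟨x, hx⟩) = 1 := by
        rw [← MonoidHom.mem_ker, hqk]; exact ⟨_, rfl⟩
      rw [map_mul, map_inv, h2, inv_one, one_mul]
  have T' : Tri q' π' W' l' :=
    { hq := hq's
      hπ := by
        intro y
        obtain ⟨d, hd⟩ := hπ (y : G)
        refine ⟨⟨d, ?_⟩, ?_⟩
        · rw [hA', Subgroup.mem_comap, hd]; exact y.2
        · exact Subtype.ext hd
      hW := isIrr_of_restrict Q q'.ker hWK'
      hWK := hWK'
      hl := by
        intro z hz a
        change (Q (z * a)).trace = l z * (Q a).trace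
        have h1 := hQZ z ((hkk z).1 hz)
        change Q z = _ at h1
        rw [map_mul, h1, smul_mul_assoc, one_mul, Matrix.trace_smul, smul_eq_mul]
      hZ := by
        intro z hz
        rw [Subgroup.mem_center_iff]
        intro a
        apply Subtype.ext
        exact Subgroup.mem_center_iff.1 (hZ ((hkk z).1 hz)) a }
  have hBB : BB q' π' l' = BB q π l := by
    ext b
    constructor
    · intro hb z hz g
      have hzA : z ∈ A' := by
        rw [hA', Subgroup.mem_comap, MonoidHom.mem_ker.1 hz]; exact one_mem _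
      exact hb ⟨z, hzA⟩ ((hkk _).2 hz) g
    · intro hb z hz g
      exact hb z ((hkk _).1 hz) g
  obtain ⟨F, hFb, hF⟩ := T.exists_bij
  obtain ⟨F', hFb', hF'⟩ := T'.exists_bij
  rw [hBB] at hFb' hF'
  set c : Set (IrrCharacter H) := {ψ : IrrCharacter H |
    classInner (fun x : N.subgroupOf H => (ψ : H → ℂ) x) (φ : N.subgroupOf H → ℂ) ≠ 0} with hc
  set B : Set (IrrCharacter G) := {χ : IrrCharacter G |
    classInner (fun x : N => (χ : G → ℂ) x) (θ : N → ℂ) ≠ 0} with hB
  have hset : {χ : IrrCharacter G |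
        classInner (fun k : q.ker => (χ : G → ℂ) (π k)) (fun k : q.ker => W k) ≠ 0} = B := by
    ext χ
    rw [hB, Set.mem_ofPred_eq, Set.mem_ofPred_eq, ← classInner_comp_bij e.toEquiv]
    have h1 : (fun x : N => (fun k : q.ker => (χ : G → ℂ) (π k)) (e.toEquiv x)) =
        fun x : N => (χ : G → ℂ) x := by
      funext x
      change (χ : G → ℂ) (π (ν x)) = _
      rw [hν]
    have h2 : (fun x : N => (fun k : q.ker => W k) (e.toEquiv x)) = (θ : N → ℂ) := by
      funext x
      exact hWe x
    rw [h1, h2]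
  have hset' : {χ : IrrCharacter H |
        classInner (fun k : q'.ker => (χ : H → ℂ) (π' k)) (fun k : q'.ker => W' k) ≠ 0} = c := by
    ext χ
    rw [hc, Set.mem_ofPred_eq, Set.mem_ofPred_eq, ← classInner_comp_bij e'.toEquiv]
    have h1 : (fun x : N.subgroupOf H => (fun k : q'.ker => (χ : H → ℂ) (π' k)) (e'.toEquiv x)) =
        fun x : N.subgroupOf H => (χ : H → ℂ) x := by
      funext x
      change (χ : H → ℂ) (π' (e' x)) = _
      refine congrArg (χ : H → ℂ) (Subtype.ext ?_)
      change π (ν ⟨((x : H) : G), x.2⟩) = _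
      rw [hν]
    have h2 : (fun x : N.subgroupOf H => (fun k : q'.ker => W' k) (e'.toEquiv x)) =
        (φ : N.subgroupOf H → ℂ) := by
      funext x
      exact hWe' x
    rw [h1, h2]
  rw [hset] at hFb
  rw [hset'] at hFb'
  have hne : Nonempty (IrrCharacter (Δ ⧸ ν.range)) := ⟨⟨1, isIrr_one⟩⟩
  have hinv := hFb'.invOn_invFunOn
  refine ⟨fun ψ => F (Function.invFunOn F' (BB q π l) ψ), fun _ => 1, ?_, fun _ _ => Or.inl rfl, ?_⟩
  · exact hFb.comp (Set.BijOn.symm hinv.symm hFb')
  · intro x y
    obtain ⟨a, rfl⟩ := T.hπ x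
    obtain ⟨b, rfl⟩ := T'.hπ y
    have := finite_irr (G := Δ ⧸ ν.range)
    have := Fintype.ofFinite (IrrCharacter (Δ ⧸ ν.range))
    have := Fintype.ofFinite π.ker
    -- the kernel
    have hmu : signedBijectionKernel c (fun ψ => F (Function.invFunOn F' (BB q π l) ψ))
        (fun _ => 1) (π a) (π' b) = W a * W' b *
          ∑ᶠ β ∈ BB q π l, (β : Δ ⧸ ν.range → ℂ) (q a) * (β : Δ ⧸ ν.range → ℂ) (q' b) := by
      rw [signedBijectionKernel, mul_finsum_mem]
      symm
      refine finsum_mem_eq_of_bijOn F' hFb' ?_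
      intro β hβ
      rw [hinv.1 hβ, hF β hβ a, hF' β hβ b]
      push_cast
      ring
    have hsum := T.sum_BB (q a) (q' b)
    set S := ∑ᶠ β ∈ BB q π l, (β : Δ ⧸ ν.range → ℂ) (q a) * (β : Δ ⧸ ν.range → ℂ) (q' b) with hS
    have hZ0 : (Nat.card π.ker : ℂ) ≠ 0 := by exact_mod_cast Nat.card_pos.ne'
    have hS2 : S = (Nat.card π.ker : ℂ)⁻¹ * ∑ z : π.ker, l z * cc (q a) (q z * q' b)⁻¹ := by
      rw [← hsum, ← mul_assoc, inv_mul_cancel₀ hZ0, one_mul]
    have hqz : ∀ z : π.ker, q z ∈ Subgroup.center (Δ ⧸ ν.range) := by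
      intro z
      rw [Subgroup.mem_center_iff]
      intro g
      obtain ⟨d, rfl⟩ := T.hq g
      rw [← map_mul, ← map_mul, Subgroup.mem_center_iff.1 (hZ z.2) d]
    have hcardq : ¬ p ∣ Nat.card q.ker := by rwa [← Nat.card_congr e.toEquiv]
    have hcardq' : ¬ p ∣ Nat.card q'.ker := by
      intro h1
      rw [← Nat.card_congr e'.toEquiv] at h1
      exact hpN (h1.trans (Subgroup.card_comap_dvd_of_injective N H.subtype H.subtype_injective))
    have hcardπ' : ¬ p ∣ Nat.card π'.ker := by
      intro h1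
      apply hZp
      refine h1.trans ?_
      let g : π'.ker →* π.ker :=
        { toFun := fun z => ⟨(z : A'), (hkk z).1 z.2⟩
          map_one' := rfl
          map_mul' := fun _ _ => rfl }
      refine Subgroup.card_dvd_of_injective g ?_
      intro z w hzw
      exact Subtype.ext (Subtype.ext (congrArg (fun k : π.ker => (k : Δ)) hzw))
    have hW_int : MemLocalRing M (W a) := Cfsg.Agent.Blocks.Local.memLocalRing_of_isIntegral
      (Cfsg.Agent.Characters.GaloisBasic.isIntegral_apply (isIrr_isCharacter T.hW) a)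
    have hW'_int : MemLocalRing M (W' b) := Cfsg.Agent.Blocks.Local.memLocalRing_of_isIntegral
      (Cfsg.Agent.Characters.GaloisBasic.isIntegral_apply (isIrr_isCharacter T'.hW) b)
    have hl_int : ∀ z : π.ker, MemLocalRing M (l z) := by
      intro z
      obtain ⟨lam, hlam⟩ := T.exists_hom
      rw [← hlam]
      exact Cfsg.Agent.Blocks.Local.memLocalRing_of_isIntegral (isIntegral_hom lam z)
    have hZ_int : MemLocalRing M ((Nat.card π.ker : ℂ)⁻¹) :=
      Cfsg.Agent.Blocks.Local.memLocalRing_inv_natCast hM hZp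
    have hfin : ∀ D : ℂ, (∀ z : π.ker, MemLocalRing M (cc (q a) (q z * q' b)⁻¹ / D)) →
        MemLocalRing M (W a * W' b * S / D) := by
      intro D hD
      have h1 : W a * W' b * S / D = W a * W' b * ((Nat.card π.ker : ℂ)⁻¹ *
          ∑ z : π.ker, l z * (cc (q a) (q z * q' b)⁻¹ / D)) := by
        rw [hS2]
        simp only [mul_div_assoc, Finset.sum_div]
      rw [h1]
      refine Cfsg.Agent.Blocks.Local.memLocalRing_mul
        (Cfsg.Agent.Blocks.Local.memLocalRing_mul hW_int hW'_int)
        (Cfsg.Agent.Blocks.Local.memLocalRing_mul hZ_int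
          (Cfsg.Agent.Blocks.Local.memLocalRing_sum fun z _ =>
            Cfsg.Agent.Blocks.Local.memLocalRing_mul (hl_int z) (hD z)))
    rw [hmu]
    refine ⟨hfin _ fun z => ?_, hfin _ fun z => ?_, ?_⟩
    · refine memLocalRing_cc T hM hcardq a _ _ fun hconj => ?_
      exact Cfsg.Agent.Blocks.SylowIn.card_centralizer_of_isConj hconj
    · refine memLocalRing_cc T' hM hcardq' b _ _ fun hconj => ?_
      rw [centralizer_central_mul_inv (hqz z)]
    · by_cases h0 : S = 0
      · right
        rw [h0, mul_zero]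
      left
      have h1 : ∃ z : π.ker, IsConj (q a) (q z * q' b)⁻¹ := by
        by_contra hno
        push Not at hno
        apply h0
        rw [hS2, Finset.sum_eq_zero fun z _ => by rw [cc_of_not (hno z), mul_zero], mul_zero]
      obtain ⟨z, hz⟩ := h1
      have hzc : Commute (q z) (q' b) := (Subgroup.mem_center_iff.1 (hqz z) (q' b)).symm
      have hzo : ¬ p ∣ orderOf (q z) := by
        intro h2
        apply hZp
        refine (h2.trans (orderOf_map_dvd q (z : Δ))).trans ?_
        rw [Subgroup.orderOf_coe]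
        exact orderOf_dvd_natCard z
      rw [isPRegular_map_iff π hZp, ← isPRegular_map_iff q hcardq, isPRegular_of_isConj hz,
        isPRegular_inv_iff, isPRegular_mul_iff hzc hzo, isPRegular_map_iff q' hcardq',
        isPRegular_map_iff π' hcardπ']

end Cfsg.Agent.H637.TaskA
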